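/-
Arithmetic modulo an odd prime: `-u` in the group generated by `u²`.
-/
import Mathlib

set_option autoImplicit false

namespace Cfsg.Agent.Lib.GUr

/-- `-u` lies in the subgroup generated by `u²` iff the order of `u` is `2` modulo `4`. -/
theorem neg_mem_iff (r : ℕ) [Fact r.Prime] (hr2 : r ≠ 2) (u : ZMod r) (hu : u ≠ 0) :
    (∃ j : ℕ, - u = (u ^ 2) ^ j) ↔ orderOf u % 4 = 2 := by
  have hne : (-1 : ZMod r) ≠ 1 := by
    haveI : Fact (2 < r) := ⟨lt_of_le_of_ne (Fact.out : r.Prime).two_le (Ne.symm hr2)⟩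
    exact ZMod.neg_one_ne_one
  have hu1 : u ^ (r - 1) = 1 := ZMod.pow_card_sub_one_eq_one hu
  have hipos : 0 < orderOf u := by
    apply orderOf_pos_iff.mpr
    apply isOfFinOrder_iff_pow_eq_one.mpr
    exact ⟨r - 1, by have := (Fact.out : r.Prime).two_le; omega, hu1⟩
  constructor
  · rintro ⟨j, hj⟩
    set i := orderOf u with hi
    have hui : u ^ i = 1 := pow_orderOf_eq_one u
    obtain ⟨w, hw⟩ : ∃ w, 2 * (j + i) = w + 1 := ⟨2 * (j + i) - 1, by omega⟩
    have h1 : u ^ (w + 1) = - u := by
      rw [← hw, hj, pow_mul, pow_add]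
      have h7 : (u ^ 2) ^ i = 1 := by rw [← pow_mul, mul_comm, pow_mul, hui, one_pow]
      rw [h7, mul_one]
    have h2 : u ^ w = -1 := by
      rw [pow_succ] at h1
      have h3 : (u ^ w + 1) * u = 0 := by
        rw [add_mul, h1, one_mul, neg_add_cancel]
      rcases mul_eq_zero.mp h3 with h4 | h4
      · exact eq_neg_of_add_eq_zero_left h4
      · exact absurd h4 hu
    have h3 : u ^ (2 * w) = 1 := by
      rw [mul_comm, pow_mul, h2]
      norm_num
    have h4 : i ∣ 2 * w := orderOf_dvd_of_pow_eq_one h3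
    have h5 : ¬ i ∣ w := by
      intro h
      have := orderOf_dvd_iff_pow_eq_one.mp h
      rw [h2] at this
      exact hne this
    have hwodd : w % 2 = 1 := by omega
    rcases Nat.even_or_odd i with he | ho
    · obtain ⟨t, ht⟩ := he
      have h6 : t ∣ w := by
        rw [ht, ← two_mul] at h4
        exact (Nat.mul_dvd_mul_iff_left (by norm_num)).mp h4
      obtain ⟨c, hc⟩ := h6
      have h7 : t % 2 = 1 := by
        by_contra h8
        have h9 : t % 2 = 0 := by omega
        rw [hc, Nat.mul_mod, h9, zero_mul] at hwodd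
        simp at hwodd
      omega
    · exact absurd ((Nat.Coprime.dvd_of_dvd_mul_left (by
        exact Nat.coprime_two_right.mpr ho) h4)) h5
  · intro h
    set i := orderOf u with hi
    obtain ⟨t, ht⟩ : ∃ t, i = 2 * t := ⟨i / 2, by omega⟩
    have htpos : 0 < t := by omega
    have hlt : t < i := by omega
    have hv : u ^ t ≠ 1 := pow_ne_one_of_lt_orderOf htpos.ne' hlt
    have hv2 : u ^ t * u ^ t = 1 := by
      rw [← pow_add, ← two_mul, ← ht]
      exact pow_orderOf_eq_one u
    have hv3 : u ^ t = -1 := by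
      rcases mul_self_eq_one_iff.mp hv2 with h1 | h1
      · exact absurd h1 hv
      · exact h1
    obtain ⟨j, hj⟩ : ∃ j, t + 1 = 2 * j := ⟨(t + 1) / 2, by omega⟩
    refine ⟨j, ?_⟩
    rw [← pow_mul, ← hj, pow_succ, hv3]
    ring

/-- The order of the square. -/
theorem orderOf_sq_eq {G : Type*} [Monoid G] (u : G) (i b : ℕ) (hi : i = orderOf u)
    (hb : b = if Odd i then i else i / 2) : orderOf (u ^ 2) = b := by
  rw [orderOf_pow' u two_ne_zero, ← hi, hb]
  split_ifs with h
  · have : Nat.gcd i 2 = 1 := by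
      exact Nat.coprime_two_right.mpr h
    rw [this, Nat.div_one]
  · have h2 : 2 ∣ i := by
      rw [← even_iff_two_dvd]
      exact Nat.not_odd_iff_even.mp h
    rw [Nat.gcd_eq_right h2]

end Cfsg.Agent.Lib.GUr
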