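/-
The duality `A ↦ ((A^σ)ᵀ)⁻¹` on matrices, and the corresponding duality on polynomials.
-/
import Cfsg.Agent.S2568

set_option autoImplicit false
set_option linter.unusedSectionVars false

namespace Cfsg.Agent.Lib.GUr

open Polynomial Module Matrix
open Cfsg.Agent.Lib.MatConj.Semisimple Cfsg.Agent.Lib.MatConj.CycloFactors Cfsg.Agent.S2568

universe u

variable {K : Type u} [Field K] {n : ℕ}

/-- The nullity of a square matrix. -/
noncomputable def nl (M : Matrix (Fin n) (Fin n) K) : ℕ := finrank K (LinearMap.ker (Matrix.mulVecLin M))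

theorem rank_add_nl (M : Matrix (Fin n) (Fin n) K) : M.rank + nl M = n := by
  have := LinearMap.finrank_range_add_finrank_ker (Matrix.mulVecLin M)
  rw [Module.finrank_fintype_fun_eq_card, Fintype.card_fin] at this
  exact this

theorem nl_transpose (M : Matrix (Fin n) (Fin n) K) : nl Mᵀ = nl M := by
  have h1 := rank_add_nl M
  have h2 := rank_add_nl Mᵀ
  rw [Matrix.rank_transpose] at h2
  omega

theorem nl_mul_unit (M U : Matrix (Fin n) (Fin n) K) (hU : IsUnit U.det) : nl (M * U) = nl M := by
  have h1 := rank_add_nl M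
  have h2 := rank_add_nl (M * U)
  rw [Matrix.rank_mul_eq_left_of_isUnit_det U M hU] at h2
  omega

theorem nl_smul (M : Matrix (Fin n) (Fin n) K) (c : K) (hc : c ≠ 0) : nl (c • M) = nl M := by
  unfold nl
  have h1 : LinearMap.ker (Matrix.mulVecLin (c • M)) = LinearMap.ker (Matrix.mulVecLin M) := by
    ext v
    simp only [LinearMap.mem_ker, Matrix.mulVecLin_apply, Matrix.smul_mulVec, smul_eq_zero, hc, false_or]
  rw [h1]

theorem nl_map (σ : K ≃+* K) (M : Matrix (Fin n) (Fin n) K) : nl (M.map σ) = nl M := by
  unfold nl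
  have hmv : ∀ (M : Matrix (Fin n) (Fin n) K) (v : Fin n → K), (M.map σ) *ᵥ (fun i => σ (v i)) = fun i => σ ((M *ᵥ v) i) := by
    intro M v
    ext i
    simp [Matrix.mulVec, dotProduct, map_sum, map_mul]
  let j : LinearMap.ker (Matrix.mulVecLin M) ≃+ LinearMap.ker (Matrix.mulVecLin (M.map σ)) :=
    { toFun := fun x => ⟨fun i => σ (x.1 i), by
        rw [LinearMap.mem_ker, Matrix.mulVecLin_apply, hmv]
        have h := LinearMap.mem_ker.mp x.2
        rw [Matrix.mulVecLin_apply] at h
        rw [h]
        ext i
        simp⟩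
      invFun := fun x => ⟨fun i => σ.symm (x.1 i), by
        rw [LinearMap.mem_ker, Matrix.mulVecLin_apply]
        have h := LinearMap.mem_ker.mp x.2
        rw [Matrix.mulVecLin_apply] at h
        ext i
        have h2 := congrFun h i
        have h3 := hmv M (fun i => σ.symm (x.1 i))
        simp only [RingEquiv.apply_symm_apply] at h3
        have h4 := congrFun h3 i
        rw [h] at h4
        have h5 : σ ((M *ᵥ fun i => σ.symm (x.1 i)) i) = 0 := h4.symm
        simpa using h5⟩
      left_inv := fun x => by
        ext i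
        simp
      right_inv := fun x => by
        ext i
        simp
      map_add' := fun x y => by
        ext i
        simp }
  have := rank_eq_of_equiv_equiv (σ : K → K) j σ.bijective (fun r m => by
    ext i
    simp [j])
  exact (congrArg Cardinal.toNat this).symm

/-- Polynomials in a mapped matrix. -/
theorem aeval_map_map (σ : K ≃+* K) (M : Matrix (Fin n) (Fin n) K) (P : K[X]) :
    aeval (M.map σ) (P.map (σ : K →+* K)) = (aeval M P).map σ := by
  induction P using Polynomial.induction_on' with
  | add p q hp hq =>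
    rw [Polynomial.map_add, map_add, map_add, hp, hq]
    ext i j
    simp
  | monomial k a =>
    rw [Polynomial.map_monomial, aeval_monomial, aeval_monomial]
    have h1 : (M.map σ) ^ k = (M ^ k).map σ := by
      have := map_pow (σ.mapMatrix (m := Fin n)) M k
      simpa using this.symm
    rw [h1, ← Algebra.smul_def, ← Algebra.smul_def]
    ext i j
    simp

/-- Polynomials in a transpose. -/
theorem aeval_transpose (M : Matrix (Fin n) (Fin n) K) (P : K[X]) : aeval Mᵀ P = (aeval M P)ᵀ := by
  induction P using Polynomial.induction_on' with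
  | add p q hp hq =>
    rw [map_add, map_add, hp, hq, Matrix.transpose_add]
  | monomial k a =>
    rw [aeval_monomial, aeval_monomial, ← Algebra.smul_def, ← Algebra.smul_def, Matrix.transpose_smul, Matrix.transpose_pow]

/-- Reversal and inverses in a noncommutative algebra. -/
theorem aeval_reflect_mul_pow {A : Type*} [Ring A] [Algebra K A] (x y : A) (h1 : y * x = 1) (N : ℕ) (f : K[X])
    (hf : f.natDegree ≤ N) : aeval y (reflect N f) * x ^ N = aeval x f := by
  refine induction_with_natDegree_le (fun f => aeval y (reflect N f) * x ^ N = aeval x f) N ?_ ?_ ?_ f hf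
  · simp
  · intro m c _ hmN
    simp only [revAt_le hmN, reflect_C_mul_X_pow, map_mul, aeval_C, map_pow, aeval_X]
    have h2 : x ^ N = x ^ (N - m) * x ^ m := by rw [← pow_add]; congr 1; omega
    have h3 : ∀ k : ℕ, y ^ k * x ^ k = 1 := by
      intro k
      induction k with
      | zero => simp
      | succ k ih =>
        rw [pow_succ y, pow_succ' x, mul_assoc, ← mul_assoc y x, h1, one_mul, ih]
    rw [h2, mul_assoc, ← mul_assoc (y ^ (N - m)), h3, one_mul]
  · intro f g _ _ hf hg
    simp only [reflect_add, map_add, add_mul, hf, hg]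

/-- The dual of a matrix. -/
noncomputable def dualM (σ : K ≃+* K) (A : Matrix (Fin n) (Fin n) K) : Matrix (Fin n) (Fin n) K := ((A.map σ)ᵀ)⁻¹

theorem isUnit_map (σ : K ≃+* K) (A : Matrix (Fin n) (Fin n) K) (hA : IsUnit A.det) : IsUnit ((A.map σ)ᵀ).det := by
  rw [Matrix.det_transpose]
  have : (A.map σ).det = σ A.det := by
    have := RingHom.map_det (σ : K →+* K) A
    simpa using this.symm
  rw [this]
  exact hA.map σ

/-- The polynomial duality, before normalizing. -/
noncomputable def revP (σ : K ≃+* K) (Q : K[X]) : K[X] := reverse (Q.map (σ : K →+* K))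

/-- Duality for nullities. -/
theorem nl_dual (σ : K ≃+* K) (A : Matrix (Fin n) (Fin n) K) (hA : IsUnit A.det) (Q : K[X]) :
    nl (aeval (dualM σ A) (revP σ Q)) = nl (aeval A Q) := by
  set B := (A.map σ)ᵀ with hB
  have hBu : IsUnit B.det := isUnit_map σ A hA
  have h1 : B⁻¹ * B = 1 := Matrix.nonsing_inv_mul B hBu
  have h2 := aeval_reflect_mul_pow B B⁻¹ h1 _ (Q.map (σ : K →+* K)) le_rfl
  have h3 : nl (aeval (dualM σ A) (revP σ Q)) = nl (aeval B (Q.map (σ : K →+* K))) := by
    rw [← h2]
    show nl (aeval B⁻¹ (reverse (Q.map (σ : K →+* K)))) = nl (aeval B⁻¹ (reflect _ _) * B ^ _)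
    rw [nl_mul_unit]
    · rfl
    · rw [Matrix.det_pow]
      exact hBu.pow _
  rw [h3, hB, aeval_transpose, nl_transpose, aeval_map_map, nl_map]

end Cfsg.Agent.Lib.GUr
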