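/-
The duality on the monic irreducible factors of `X^r - 1`.
-/
import Cfsg.Agent.Lib.GUr.Dual

set_option autoImplicit false
set_option linter.unusedSectionVars false

namespace Cfsg.Agent.Lib.GUr

open Polynomial Module Matrix
open Cfsg.Agent.Lib.MatConj.Semisimple Cfsg.Agent.Lib.MatConj.CycloFactors Cfsg.Agent.S2568

universe u

section poly

variable {K : Type u} [Field K]

theorem natDegree_map_s (σ : K ≃+* K) (Q : K[X]) : (Q.map (σ : K →+* K)).natDegree = Q.natDegree :=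
  natDegree_map_eq_of_injective σ.injective Q

theorem coeff_zero_map_s (σ : K ≃+* K) {Q : K[X]} (h : Q.coeff 0 ≠ 0) : (Q.map (σ : K →+* K)).coeff 0 ≠ 0 := by
  rw [coeff_map]
  exact (map_ne_zero (σ : K →+* K)).mpr h

theorem reverse_reverse_of {Q : K[X]} (h : Q.coeff 0 ≠ 0) : reverse (reverse Q) = Q := by
  have h1 : Q.natTrailingDegree = 0 := natTrailingDegree_eq_zero.mpr (Or.inr h)
  have h2 : (reverse Q).natDegree = Q.natDegree := by rw [reverse_natDegree, h1, Nat.sub_zero]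
  rw [reverse, h2, reverse, reflect_reflect]

theorem natDegree_reverse_of {Q : K[X]} (h : Q.coeff 0 ≠ 0) : (reverse Q).natDegree = Q.natDegree := by
  have h1 : Q.natTrailingDegree = 0 := natTrailingDegree_eq_zero.mpr (Or.inr h)
  rw [reverse_natDegree, h1, Nat.sub_zero]

theorem reverse_map_s (σ : K ≃+* K) (Q : K[X]) :
    reverse (Q.map (σ : K →+* K)) = (reverse Q).map (σ : K →+* K) := by
  rw [reverse, natDegree_map_s, reflect_map, reverse]

theorem irreducible_reverse {P : K[X]} (hP : Irreducible P) (h0 : P.coeff 0 ≠ 0) : Irreducible (reverse P) := by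
  have hdeg : 0 < P.natDegree := natDegree_pos_iff_degree_pos.mpr (degree_pos_of_irreducible hP)
  rw [irreducible_iff]
  constructor
  · intro hu
    have h1 := natDegree_eq_zero_of_isUnit hu
    rw [natDegree_reverse_of h0] at h1
    omega
  · intro U V hUV
    have h1 : P = reverse U * reverse V := by
      rw [← reverse_mul_of_domain, ← hUV, reverse_reverse_of h0]
    have hl : P.leadingCoeff ≠ 0 := leadingCoeff_ne_zero.mpr hP.ne_zero
    have h2 : (reverse P).coeff 0 ≠ 0 := by rwa [coeff_zero_reverse]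
    have aux : ∀ U V : K[X], reverse P = U * V → IsUnit (reverse U) → IsUnit U := by
      intro U V hUV hu
      have hU0 : U.coeff 0 ≠ 0 := by
        intro hc
        apply h2
        rw [hUV, mul_coeff_zero, hc, zero_mul]
      have hne : U ≠ 0 := by
        rintro rfl
        simp at hU0
      have h3 := natDegree_eq_zero_of_isUnit hu
      rw [natDegree_reverse_of hU0] at h3
      obtain ⟨c, rfl⟩ := natDegree_eq_zero.mp h3
      apply isUnit_C.mpr
      have : c ≠ 0 := by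
        rintro rfl
        simp at hne
      exact this.isUnit
    rcases hP.isUnit_or_isUnit h1 with h3 | h3
    · exact Or.inl (aux U V hUV h3)
    · exact Or.inr (aux V U (by rw [hUV, mul_comm]) h3)

theorem irreducible_map_s (σ : K ≃+* K) {P : K[X]} (hP : Irreducible P) : Irreducible (P.map (σ : K →+* K)) := by
  have := (MulEquiv.irreducible_iff (Polynomial.mapEquiv σ).toMulEquiv (x := P)).mpr hP
  simpa using this

/-- The normalized dual polynomial. -/
noncomputable def stp (σ : K ≃+* K) (Q : K[X]) : K[X] := revP σ Q * C (revP σ Q).leadingCoeff⁻¹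

theorem revP_ne_zero (σ : K ≃+* K) {Q : K[X]} (hQ : Q ≠ 0) : revP σ Q ≠ 0 := by
  rw [revP, Ne, reverse_eq_zero]
  exact (Polynomial.map_ne_zero_iff σ.injective).mpr hQ

theorem stp_monic (σ : K ≃+* K) {Q : K[X]} (hQ : Q ≠ 0) : (stp σ Q).Monic :=
  monic_mul_leadingCoeff_inv (revP_ne_zero σ hQ)

theorem natDegree_revP (σ : K ≃+* K) {Q : K[X]} (h0 : Q.coeff 0 ≠ 0) : (revP σ Q).natDegree = Q.natDegree := by
  rw [revP, natDegree_reverse_of (coeff_zero_map_s σ h0), natDegree_map_s]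

theorem natDegree_stp (σ : K ≃+* K) {Q : K[X]} (h0 : Q.coeff 0 ≠ 0) : (stp σ Q).natDegree = Q.natDegree := by
  have hQ : Q ≠ 0 := by
    rintro rfl
    simp at h0
  rw [stp, natDegree_mul_C (inv_ne_zero (leadingCoeff_ne_zero.mpr (revP_ne_zero σ hQ))), natDegree_revP σ h0]

theorem associated_stp (σ : K ≃+* K) {Q : K[X]} (hQ : Q ≠ 0) : Associated (revP σ Q) (stp σ Q) := by
  refine ⟨Units.map C.toMonoidHom (Units.mk0 _ (inv_ne_zero (leadingCoeff_ne_zero.mpr (revP_ne_zero σ hQ)))), ?_⟩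
  simp [stp]

theorem irreducible_stp (σ : K ≃+* K) {Q : K[X]} (hQ : Irreducible Q) (h0 : Q.coeff 0 ≠ 0) : Irreducible (stp σ Q) := by
  have h1 : Irreducible (revP σ Q) := irreducible_reverse (irreducible_map_s σ hQ) (coeff_zero_map_s σ h0)
  exact (associated_stp σ hQ.ne_zero).irreducible h1

theorem revP_revP (σ : K ≃+* K) (hσ : ∀ x, σ (σ x) = x) {Q : K[X]} (h0 : Q.coeff 0 ≠ 0) : revP σ (revP σ Q) = Q := by
  rw [revP, revP, reverse_map_s, reverse_reverse_of (coeff_zero_map_s σ h0), Polynomial.map_map]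
  ext i
  simp [hσ]

theorem revP_mul_C (σ : K ≃+* K) (P : K[X]) (c : K) : revP σ (P * C c) = revP σ P * C (σ c) := by
  rw [revP, Polynomial.map_mul, map_C, reverse_mul_of_domain, reverse_C]
  rfl

/-- The duality is an involution. -/
theorem stp_stp (σ : K ≃+* K) (hσ : ∀ x, σ (σ x) = x) {Q : K[X]} (hm : Q.Monic) (h0 : Q.coeff 0 ≠ 0) :
    stp σ (stp σ Q) = Q := by
  have hQ := hm.ne_zero
  have hm1 := stp_monic σ hQ
  refine eq_of_monic_of_associated (stp_monic σ hm1.ne_zero) hm ?_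
  refine (associated_stp σ hm1.ne_zero).symm.trans ?_
  have h1 : revP σ (stp σ Q) = Q * C (σ (revP σ Q).leadingCoeff⁻¹) := by
    rw [stp, revP_mul_C, revP_revP σ hσ h0]
  rw [h1]
  have hc : σ (revP σ Q).leadingCoeff⁻¹ ≠ 0 :=
    (map_ne_zero σ).mpr (inv_ne_zero (leadingCoeff_ne_zero.mpr (revP_ne_zero σ hQ)))
  refine ⟨Units.map C.toMonoidHom (Units.mk0 _ (inv_ne_zero hc)), ?_⟩
  simp only [Units.coe_map, Units.val_mk0, RingHom.toMonoidHom_eq_coe, MonoidHom.coe_coe, mul_assoc, ← C_mul]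
  rw [mul_inv_cancel₀ hc, C_1, mul_one]

theorem f0_map (σ : K ≃+* K) (r : ℕ) : (f0 K r).map (σ : K →+* K) = f0 K r := by
  simp [f0]

theorem reverse_f0 (r : ℕ) (hr : r ≠ 0) : reverse (f0 K r) = - f0 K r := by
  have h1 : (f0 K r).natDegree = r := natDegree_X_pow_sub_C (n := r) (r := (1 : K))
  rw [reverse, h1, f0, reflect_sub, reflect_monomial, reflect_one, revAt_le le_rfl, Nat.sub_self, pow_zero, neg_sub]

theorem stp_dvd (σ : K ≃+* K) (r : ℕ) (hr : r ≠ 0) {Q : K[X]} (hQ : Q ≠ 0) (hd : Q ∣ f0 K r) : stp σ Q ∣ f0 K r := by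
  obtain ⟨V, hV⟩ := hd
  have h1 : revP σ Q ∣ f0 K r := by
    have h2 : - f0 K r = revP σ Q * reverse (V.map (σ : K →+* K)) := by
      rw [← reverse_f0 r hr, ← f0_map σ, hV, Polynomial.map_mul, reverse_mul_of_domain, revP]
    refine ⟨- reverse (V.map (σ : K →+* K)), ?_⟩
    rw [mul_neg, ← h2, neg_neg]
  exact (associated_stp σ hQ).symm.dvd.trans h1

theorem stp_x1 (σ : K ≃+* K) : stp σ (X - 1) = X - 1 := by
  have h1 : revP σ (X - 1 : K[X]) = 1 - X := by
    have h2 : (X - 1 : K[X]).natDegree = 1 := by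
      have := natDegree_X_sub_C (1 : K)
      simpa using this
    rw [revP]
    have h3 : (X - 1 : K[X]).map (σ : K →+* K) = X - 1 := by simp
    rw [h3, reverse, h2, reflect_sub, reflect_one_X, reflect_one, pow_one]
  have hx : (1 - X : K[X]) = - (X - 1) := by ring
  have h4 : (1 - X : K[X]).leadingCoeff = -1 := by
    have hm : (X - 1 : K[X]).Monic := by
      have := monic_X_sub_C (1 : K)
      simpa using this
    rw [hx, leadingCoeff_neg, hm.leadingCoeff]
  rw [stp, h1, h4, hx, inv_neg, inv_one, map_neg, C_1]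
  ring

theorem coeff_zero_of_dvd_f0 (r : ℕ) (hr : r ≠ 0) {Q : K[X]} (hd : Q ∣ f0 K r) : Q.coeff 0 ≠ 0 := by
  intro h
  obtain ⟨V, hV⟩ := hd
  have h1 := congrArg (fun P => coeff P 0) hV
  simp only [mul_coeff_zero, h, zero_mul, f0, coeff_sub, coeff_one_zero, coeff_X_pow] at h1
  rw [if_neg (Ne.symm hr)] at h1
  simp at h1

end poly

section fac

open _root_.Classical

variable {F : Type u} [Field F] [Fintype F] {p q : ℕ} [Fact p.Prime] [CharP F p]

theorem stp_mem_Th (σ : F ≃+* F) (r : ℕ) (hr : r.Prime) {Q : F[X]} (hQ : Q ∈ Th F r) : stp σ Q ∈ Th F r := by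
  obtain ⟨h1, h2, h3⟩ := (mem_Th r hr Q).mp hQ
  exact (mem_Th r hr _).mpr ⟨irreducible_stp σ h1 (coeff_zero_of_dvd_f0 r hr.ne_zero h3), stp_monic σ h2.ne_zero,
    stp_dvd σ r hr.ne_zero h2.ne_zero h3⟩

theorem stp_stp_Th (σ : F ≃+* F) (hσ : ∀ x, σ (σ x) = x) (r : ℕ) (hr : r.Prime) {Q : F[X]} (hQ : Q ∈ Th F r) :
    stp σ (stp σ Q) = Q := by
  obtain ⟨h1, h2, h3⟩ := (mem_Th r hr Q).mp hQ
  exact stp_stp σ hσ h2 (coeff_zero_of_dvd_f0 r hr.ne_zero h3)

theorem stp_mem_SS (σ : F ≃+* F) (hσ : ∀ x, σ (σ x) = x) (r : ℕ) (hr : r.Prime) {Q : F[X]} (hQ : Q ∈ SS F r) :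
    stp σ Q ∈ SS F r := by
  have hQ' := Finset.mem_erase.mp hQ
  refine Finset.mem_erase.mpr ⟨?_, stp_mem_Th σ r hr hQ'.2⟩
  intro h
  apply hQ'.1
  rw [← stp_stp_Th σ hσ r hr hQ'.2, h, stp_x1]

/-- The duality on `SS`. -/
noncomputable def stS (σ : F ≃+* F) (hσ : ∀ x, σ (σ x) = x) (r : ℕ) (hr : r.Prime) (Q : SS F r) : SS F r :=
  ⟨stp σ Q.1, stp_mem_SS σ hσ r hr Q.2⟩

theorem stS_stS (σ : F ≃+* F) (hσ : ∀ x, σ (σ x) = x) (r : ℕ) (hr : r.Prime) (Q : SS F r) :
    stS σ hσ r hr (stS σ hσ r hr Q) = Q :=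
  Subtype.ext (stp_stp_Th σ hσ r hr (Finset.mem_erase.mp Q.2).2)

end fac

end Cfsg.Agent.Lib.GUr
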