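/-
Multiplicity tuples for elements of prime order in `GL_n(F)`, and their behaviour under duality.
-/
import Cfsg.Agent.Lib.GUr.Star

set_option autoImplicit false
set_option linter.unusedSectionVars false

namespace Cfsg.Agent.Lib.GUr

open Polynomial Module Matrix
open Cfsg.Agent.Lib.MatConj.Semisimple Cfsg.Agent.Lib.MatConj.CycloFactors Cfsg.Agent.S2568
open _root_.Classical

universe u

variable {F : Type u} [Field F] {n : ℕ}

/-- The multiplicity of a factor. -/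
noncomputable def mt (g : GL (Fin n) F) (Q : F[X]) : ℕ := nl (aeval (g : Matrix (Fin n) (Fin n) F) Q) / Q.natDegree

theorem aeval_Tg (g : GL (Fin n) F) (P : F[X]) : aeval (Tg g) P = Matrix.mulVecLin (aeval (g : Matrix (Fin n) (Fin n) F) P) := by
  have h1 : Tg g = (Matrix.toLinAlgEquiv' (R := F) (n := Fin n)) (g : Matrix (Fin n) (Fin n) F) := by
    ext x
    simp [Tg]
  have h2 := Polynomial.aeval_algHom_apply (Matrix.toLinAlgEquiv' (R := F) (n := Fin n)).toAlgHom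
    (g : Matrix (Fin n) (Fin n) F) P
  have h3 : ((Matrix.toLinAlgEquiv' (R := F) (n := Fin n)).toAlgHom (g : Matrix (Fin n) (Fin n) F)) = Tg g := h1.symm
  rw [h3] at h2
  rw [h2]
  ext x
  simp

theorem finrank_ker_Tg (g : GL (Fin n) F) (P : F[X]) :
    finrank F (LinearMap.ker (aeval (Tg g) P)) = nl (aeval (g : Matrix (Fin n) (Fin n) F) P) := by
  rw [aeval_Tg, nl]

/-- The multiplicities from a decomposition. -/
theorem mt_of_ss {κ : Type u} [Fintype κ] {g : GL (Fin n) F} {R : κ → F[X]} {Φ : (Fin n → F) ≃ₗ[F] ∀ k, AdjoinRoot (R k)}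
    (h : SSDecomp (Tg g) R Φ) (Q : F[X]) (hQ : Irreducible Q) (hm : Q.Monic) : Nat.card {k // R k = Q} = mt g Q := by
  have h1 := h.finrank_ker Q hQ hm
  have hdeg : 0 < Q.natDegree := natDegree_pos_iff_degree_pos.mpr (degree_pos_of_irreducible hQ)
  rw [finrank_ker_Tg] at h1
  rw [mt, h1, Nat.mul_div_cancel _ hdeg, Nat.card_eq_fintype_card]

section fin

variable [Fintype F] {p q : ℕ} [Fact p.Prime] [CharP F p]

theorem exists_dec (r : ℕ) (hr : r.Prime) (hrp : r ≠ p) (g : GL (Fin n) F) (hg : g ^ r = 1) :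
    ∃ (κ : Type u) (_ : Fintype κ) (R : κ → F[X]) (Φ : (Fin n → F) ≃ₗ[F] ∀ k, AdjoinRoot (R k)),
      SSDecomp (Tg g) R Φ ∧ ∀ k, R k ∈ Th F r := by
  have hgr : (Tg g) ^ r = 1 := by
    rw [Tg_pow, hg, Tg_eq_one_iff]
  have hT0 : aeval (Tg g) (f0 F r) = 0 := by
    simp only [f0, map_sub, map_pow, aeval_X, map_one, hgr, sub_self]
  obtain ⟨κ, hκ, R, Φ, hD, hdv⟩ := exists_ssDecomp (Tg g) (f0 F r) (f0_squarefree r hr hrp) hT0
  exact ⟨κ, hκ, R, Φ, hD, fun k => (mem_Th r hr _).mpr ⟨hD.irr k, hD.monic k, hdv k⟩⟩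

/-- The degree equation. -/
theorem sum_mt (hF : Fintype.card F = q) (r : ℕ) (hr : r.Prime) (hrp : r ≠ p) (g : GL (Fin n) F) (hg : g ^ r = 1) :
    mt g (X - 1) + orderOf (q : ZMod r) * ∑ Q : SS F r, mt g Q.1 = n := by
  obtain ⟨κ, hκ, R, Φ, hD, hRmem⟩ := exists_dec r hr hrp g hg
  have h1 := sum_deg_ss hD
  rw [Module.finrank_fintype_fun_eq_card, Fintype.card_fin] at h1
  refine Eq.trans ?_ h1
  rw [← Finset.sum_fiberwise_of_maps_to (t := Th F r) (g := R) (fun k _ => hRmem k) (fun k => (R k).natDegree),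
    ← Finset.add_sum_erase _ _ (x1_mem r hr)]
  have hc : ∀ Q : F[X], ∑ k with R k = Q, (R k).natDegree = Nat.card {k // R k = Q} * Q.natDegree := by
    intro Q
    rw [Finset.sum_congr rfl (fun k hk => by rw [(Finset.mem_filter.mp hk).2]), Finset.sum_const, smul_eq_mul,
      Nat.card_eq_fintype_card, Fintype.card_subtype]
  simp only [hc]
  have h2 : (X - 1 : F[X]).natDegree = 1 := by
    have := natDegree_X_sub_C (1 : F)
    simpa using this
  rw [h2, mul_one, mt_of_ss hD _ x1_irr x1_monic]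
  congr 1
  have h3 : ∑ Q ∈ (Th F r).erase (X - 1), Nat.card {k // R k = Q} * Q.natDegree
      = ∑ Q ∈ SS F r, mt g Q * orderOf (q : ZMod r) := by
    refine Finset.sum_congr rfl fun Q hQ => ?_
    have hQ' := Finset.mem_erase.mp hQ
    obtain ⟨h4, h5, h6⟩ := (mem_Th r hr Q).mp hQ'.2
    rw [deg_factor hF r hr hrp Q h4 h5 h6 hQ'.1, mt_of_ss hD _ h4 h5]
  rw [h3, ← Finset.sum_mul, mul_comm]
  congr 1
  exact (Finset.sum_coe_sort (SS F r) (fun Q => mt g Q))

/-- A factor not dividing `X^r - 1` has multiplicity zero. -/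
theorem mt_eq_zero (r : ℕ) (hr : r.Prime) (hrp : r ≠ p) (g : GL (Fin n) F) (hg : g ^ r = 1) (Q : F[X]) (hQ : Irreducible Q)
    (hm : Q.Monic) (hT : Q ∉ Th F r) : mt g Q = 0 := by
  obtain ⟨κ, hκ, R, Φ, hD, hRmem⟩ := exists_dec r hr hrp g hg
  rw [← mt_of_ss hD Q hQ hm, Nat.card_eq_zero]
  left
  constructor
  rintro ⟨k, hk⟩
  exact hT (hk ▸ hRmem k)

/-- Elements with the same multiplicities are conjugate. -/
theorem isConj_of_mt (hF : Fintype.card F = q) (r : ℕ) (hr : r.Prime) (hrp : r ≠ p) (g h : GL (Fin n) F) (hg : g ^ r = 1)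
    (hh : h ^ r = 1) (H : ∀ Q : SS F r, mt g Q.1 = mt h Q.1) : IsConj g h := by
  obtain ⟨κ, hκ, R, Φ, hD, hRmem⟩ := exists_dec r hr hrp g hg
  obtain ⟨κ', hκ', R', Φ', hD', hRmem'⟩ := exists_dec r hr hrp h hh
  rw [isConj_iff_T]
  refine conj_of_card hD hD' fun Q => ?_
  by_cases hT : Q ∈ Th F r
  · obtain ⟨h4, h5, h6⟩ := (mem_Th r hr Q).mp hT
    rw [mt_of_ss hD Q h4 h5, mt_of_ss hD' Q h4 h5]
    by_cases hx : Q = X - 1
    · have h1 := sum_mt hF r hr hrp g hg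
      have h2 := sum_mt hF r hr hrp h hh
      rw [Finset.sum_congr rfl (fun Q _ => H Q)] at h1
      subst hx
      omega
    · exact H ⟨Q, Finset.mem_erase.mpr ⟨hx, hT⟩⟩
  · have aux : ∀ {κ : Type u} [Fintype κ] (R : κ → F[X]), (∀ k, R k ∈ Th F r) → Nat.card {k // R k = Q} = 0 := by
      intro κ _ R hR
      rw [Nat.card_eq_zero]
      left
      constructor
      rintro ⟨k, hk⟩
      exact hT (hk ▸ hR k)
    rw [aux R hRmem, aux R' hRmem']

/-- Conjugate elements have the same multiplicities. -/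
theorem mt_of_isConj (r : ℕ) (hr : r.Prime) (hrp : r ≠ p) (g h : GL (Fin n) F) (hg : g ^ r = 1) (hc : IsConj g h)
    (Q : F[X]) (hQ : Irreducible Q) (hm : Q.Monic) : mt g Q = mt h Q := by
  have hh : h ^ r = 1 := by
    obtain ⟨c, rfl⟩ := isConj_iff.mp hc
    rw [conj_pow, hg]
    simp
  obtain ⟨κ, hκ, R, Φ, hD, hRmem⟩ := exists_dec r hr hrp g hg
  obtain ⟨κ', hκ', R', Φ', hD', hRmem'⟩ := exists_dec r hr hrp h hh
  obtain ⟨P, hP⟩ := (isConj_iff_T _ _).mp hc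
  rw [← mt_of_ss hD Q hQ hm, ← mt_of_ss hD' Q hQ hm]
  exact card_eq_of_conj hD hD' P hP Q hQ hm

/-- Tuples occur. -/
theorem exists_of_mult (hF : Fintype.card F = q) (r : ℕ) (hr : r.Prime) (hrp : r ≠ p) (a : SS F r → ℕ) (ha0 : a ≠ 0)
    (ha : ∑ Q, a Q ≤ n / orderOf (q : ZMod r)) :
    ∃ g : GL (Fin n) F, orderOf g = r ∧ ∀ Q : SS F r, mt g Q.1 = a Q := by
  set i := orderOf (q : ZMod r) with hi
  have hipos : 0 < i := hi ▸ orderOf_pos_aux hF r hr hrp
  set m := n - i * ∑ Q, a Q with hm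
  have hle : i * ∑ Q, a Q ≤ n := by
    have := Nat.mul_le_mul_left i ha
    exact this.trans (Nat.mul_div_le n i)
  have hirr : ∀ k, Irreducible (Ra r a m k) := fun k => ((mem_Th r hr _).mp (Ra_mem r hr a m k)).1
  have hmon : ∀ k, (Ra r a m k).Monic := fun k => ((mem_Th r hr _).mp (Ra_mem r hr a m k)).2.1
  have hdv : ∀ k, Ra r a m k ∣ f0 F r := fun k => ((mem_Th r hr _).mp (Ra_mem r hr a m k)).2.2
  have hsum : ∑ k, (Ra r a m k).natDegree = finrank F (Fin n → F) := by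
    rw [sum_Ra hF r hr hrp, ← hi, Module.finrank_fintype_fun_eq_card, Fintype.card_fin]
    omega
  obtain ⟨T, Φ, hT⟩ := exists_ss (Ra r a m) hirr hmon hsum
  have hTr := pow_eq_one_of_ss hT r hdv
  obtain ⟨g, rfl⟩ := exists_of_pow T r hr.ne_zero hTr
  refine ⟨g, ?_, fun Q => ?_⟩
  · haveI : Fact r.Prime := ⟨hr⟩
    apply orderOf_eq_prime
    · rw [← Tg_eq_one_iff, ← Tg_pow, hTr]
    · rw [Ne, ← Tg_eq_one_iff]
      obtain ⟨Q, hQ⟩ : ∃ Q, a Q ≠ 0 := by
        by_contra hcon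
        push Not at hcon
        exact ha0 (funext hcon)
      exact ne_one_of_ss hT (.inr ⟨Q, ⟨0, Nat.pos_of_ne_zero hQ⟩⟩) (Finset.mem_erase.mp Q.2).1
  · have hQ' := Finset.mem_erase.mp Q.2
    obtain ⟨h4, h5, -⟩ := (mem_Th r hr Q.1).mp hQ'.2
    rw [← mt_of_ss hT Q.1 h4 h5, fiber_S]

/-- Some multiplicity is positive. -/
theorem exists_mt_ne_zero (hF : Fintype.card F = q) (r : ℕ) (hr : r.Prime) (hrp : r ≠ p) (g : GL (Fin n) F)
    (hg : orderOf g = r) : (fun Q : SS F r => mt g Q.1) ≠ 0 := by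
  intro h0
  have hgr : g ^ r = 1 := by rw [← hg, pow_orderOf_eq_one]
  obtain ⟨κ, hκ, R, Φ, hD, hRmem⟩ := exists_dec r hr hrp g hgr
  have h1 : ∀ k, R k = X - 1 := by
    intro k
    by_contra hk
    have hkS : R k ∈ SS F r := Finset.mem_erase.mpr ⟨hk, hRmem k⟩
    have h2 : mt g (R k) = 0 := congrFun h0 ⟨R k, hkS⟩
    rw [← mt_of_ss hD _ (hD.irr k) (hD.monic k)] at h2
    rw [Nat.card_eq_zero] at h2
    rcases h2 with h3 | h3
    · exact h3.false ⟨k, rfl⟩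
    · exact h3.not_finite inferInstance
  have h2 : Tg g = 1 := eq_one_of_ss hD h1
  rw [Tg_eq_one_iff] at h2
  rw [h2, orderOf_one] at hg
  exact hr.one_lt.ne hg

theorem sum_mt_le (hF : Fintype.card F = q) (r : ℕ) (hr : r.Prime) (hrp : r ≠ p) (g : GL (Fin n) F) (hg : g ^ r = 1) :
    ∑ Q : SS F r, mt g Q.1 ≤ n / orderOf (q : ZMod r) := by
  have hipos : 0 < orderOf (q : ZMod r) := orderOf_pos_aux hF r hr hrp
  have h1 := sum_mt hF r hr hrp g hg
  rw [Nat.le_div_iff_mul_le hipos, mul_comm]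
  omega

end fin

/-- The dual of an element of `GL`. -/
noncomputable def dualG (σ : F ≃+* F) (g : GL (Fin n) F) : GL (Fin n) F :=
  let hu : IsUnit (((g : Matrix (Fin n) (Fin n) F).map σ)ᵀ).det :=
    isUnit_map σ _ ((Matrix.isUnit_iff_isUnit_det _).mp g.isUnit)
  ⟨dualM σ g, ((g : Matrix (Fin n) (Fin n) F).map σ)ᵀ, Matrix.nonsing_inv_mul _ hu, Matrix.mul_nonsing_inv _ hu⟩

theorem dualG_val (σ : F ≃+* F) (g : GL (Fin n) F) : (dualG σ g : Matrix (Fin n) (Fin n) F) = dualM σ g := rfl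

theorem dualG_pow (σ : F ≃+* F) (g : GL (Fin n) F) (s : ℕ) : (dualG σ g) ^ s = dualG σ (g ^ s) := by
  have hu : IsUnit (((g : Matrix (Fin n) (Fin n) F).map σ)ᵀ).det :=
    isUnit_map σ _ ((Matrix.isUnit_iff_isUnit_det _).mp g.isUnit)
  apply Units.ext
  rw [Units.val_pow_eq_pow_val, dualG_val, dualG_val, dualM, dualM, Units.val_pow_eq_pow_val, Matrix.inv_pow']
  congr 1
  rw [← Matrix.transpose_pow]
  congr 1
  have := map_pow (σ.mapMatrix (m := Fin n)) (g : Matrix (Fin n) (Fin n) F) s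
  simpa using this.symm

theorem dualG_one (σ : F ≃+* F) : dualG σ (1 : GL (Fin n) F) = 1 := by
  apply Units.ext
  rw [dualG_val, dualM]
  simp

/-- The multiplicities of the dual. -/
theorem mt_dual (σ : F ≃+* F) (g : GL (Fin n) F) (Q : F[X]) (h0 : Q.coeff 0 ≠ 0) :
    mt (dualG σ g) (stp σ Q) = mt g Q := by
  have hQ : Q ≠ 0 := by
    rintro rfl
    simp at h0
  rw [mt, mt, natDegree_stp σ h0, stp, map_mul, aeval_C]
  have hc := inv_ne_zero (leadingCoeff_ne_zero.mpr (revP_ne_zero σ hQ))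
  have h1 : aeval (dualG σ g : Matrix (Fin n) (Fin n) F) (revP σ Q) * algebraMap F _ (revP σ Q).leadingCoeff⁻¹
      = (revP σ Q).leadingCoeff⁻¹ • aeval (dualG σ g : Matrix (Fin n) (Fin n) F) (revP σ Q) := by
    rw [Algebra.smul_def, Algebra.commutes]
  rw [h1, nl_smul _ _ hc, dualG_val, nl_dual σ _ ((Matrix.isUnit_iff_isUnit_det _).mp g.isUnit)]

end Cfsg.Agent.Lib.GUr
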