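/-
Roots of the factors of `X^r - 1` in an extension field; fixed points of the duality.
-/
import Cfsg.Agent.Lib.GUr.Tup

set_option autoImplicit false
set_option linter.unusedSectionVars false

namespace Cfsg.Agent.Lib.GUr

open Polynomial Module Matrix
open Cfsg.Agent.Lib.MatConj.Semisimple Cfsg.Agent.Lib.MatConj.CycloFactors Cfsg.Agent.S2568
open _root_.Classical

universe u v

section poly

variable {K : Type u} [Field K] {E : Type v} [Field E] [Algebra K E]

/-- The dual polynomial has the dual root. -/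
theorem aeval_stp (σ : K ≃+* K) (τ : E →+* E) (hτ : ∀ c : K, τ (algebraMap K E c) = algebraMap K E (σ c))
    {Q : K[X]} (hQ : Q ≠ 0) (x : E) (hx : x ≠ 0) (hQx : aeval x Q = 0) : aeval (τ x⁻¹) (stp σ Q) = 0 := by
  letI := invertibleOfNonzero hx
  have h1 : eval₂ (algebraMap K E) (⅟x) (reverse Q) = 0 := by
    rw [eval₂_reverse_eq_zero_iff]
    exact hQx
  have h2 : (⅟x) = x⁻¹ := rfl
  rw [h2] at h1
  have h3 : aeval (τ x⁻¹) (revP σ Q) = 0 := by
    rw [revP, reverse_map_s, aeval_def, eval₂_map]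
    have h4 := congrArg τ h1
    rw [hom_eval₂, map_zero] at h4
    have h5 : (algebraMap K E).comp (σ : K →+* K) = τ.comp (algebraMap K E) := by
      ext c
      simp [hτ]
    rw [h5]
    exact h4
  rw [stp, map_mul, h3, zero_mul]

/-- Fixed points of the duality in terms of roots. -/
theorem stp_eq_iff (σ : K ≃+* K) (τ : E →+* E) (hτ : ∀ c : K, τ (algebraMap K E c) = algebraMap K E (σ c))
    {Q : K[X]} (hQ : Irreducible Q) (hm : Q.Monic) (h0 : Q.coeff 0 ≠ 0) (x : E) (hx : x ≠ 0) (hQx : aeval x Q = 0) :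
    stp σ Q = Q ↔ aeval (τ x⁻¹) Q = 0 := by
  have h1 := aeval_stp σ τ hτ hQ.ne_zero x hx hQx
  constructor
  · intro h
    rwa [h] at h1
  · intro h
    rw [minpoly.eq_of_irreducible_of_monic (irreducible_stp σ hQ h0) h1 (stp_monic σ hQ.ne_zero),
      minpoly.eq_of_irreducible_of_monic hQ h hm]

end poly

/-- Powers in a field. -/
theorem pow_eq_pow_field {E : Type v} [Field E] (x : E) (hx : x ≠ 0) (a b : ℕ) :
    x ^ a = x ^ b ↔ a ≡ b [MOD orderOf x] := by
  have h1 : orderOf x = orderOf (Units.mk0 x hx) := orderOf_units (y := Units.mk0 x hx)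
  rw [h1, ← pow_eq_pow_iff_modEq]
  constructor
  · intro h
    apply Units.ext
    simpa using h
  · intro h
    have := congrArg Units.val h
    simpa using this

section roots

variable {F : Type u} [Field F] [Fintype F] {p q : ℕ} [Fact p.Prime] [CharP F p] {E : Type v} [Field E] [Algebra F E]

theorem aeval_frob_pow (hF : Fintype.card F = q) (Q : F[X]) (x : E) (hQx : aeval x Q = 0) (j : ℕ) :
    aeval (x ^ (q ^ j)) Q = 0 := by
  induction j with
  | zero => simpa using hQx
  | succ j ih =>
    have h1 := Polynomial.aeval_algHom_apply (FiniteField.frobeniusAlgHom F E) (x ^ (q ^ j)) Q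
    rw [ih, map_zero, FiniteField.coe_frobeniusAlgHom, hF] at h1
    have h2 : x ^ q ^ (j + 1) = (x ^ q ^ j) ^ q := by rw [pow_succ, pow_mul]
    rw [h2]
    exact h1

/-- The root of a factor other than `X - 1` has order `r`. -/
theorem orderOf_root (r : ℕ) (hr : r.Prime) {Q : F[X]} (hQ : Irreducible Q) (hm : Q.Monic) (hd : Q ∣ f0 F r)
    (hne : Q ≠ X - 1) (x : E) (hQx : aeval x Q = 0) : orderOf x = r := by
  haveI : Fact r.Prime := ⟨hr⟩
  have h1 : x ^ r = 1 := by
    obtain ⟨V, hV⟩ := hd
    have h2 := congrArg (aeval x) hV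
    simp only [f0, map_sub, map_pow, aeval_X, map_one, map_mul, hQx, zero_mul] at h2
    exact sub_eq_zero.mp h2
  refine orderOf_eq_prime h1 ?_
  rintro rfl
  apply hne
  have h2 : minpoly F (1 : E) = X - 1 := by
    have := minpoly.one F E
    exact this
  have h3 := minpoly.eq_of_irreducible_of_monic hQ hQx hm
  rw [h3, h2]

/-- The roots of a factor. -/
theorem aeval_pow_iff (hF : Fintype.card F = q) (r : ℕ) (hr : r.Prime) (hrp : r ≠ p) {Q : F[X]} (hQ : Irreducible Q)
    (hm : Q.Monic) (hd : Q ∣ f0 F r) (hne : Q ≠ X - 1) (x : E) (hQx : aeval x Q = 0) (u : ℕ) :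
    aeval (x ^ u) Q = 0 ↔ ∃ j : ℕ, (u : ZMod r) = (q : ZMod r) ^ j := by
  have hord := orderOf_root r hr hQ hm hd hne x hQx
  have hpow : ∀ a b : ℕ, x ^ a = x ^ b ↔ (a : ZMod r) = (b : ZMod r) := by
    intro a b
    have hx0 : x ≠ 0 := by
      rintro rfl
      rw [orderOf_zero] at hord
      exact hr.ne_zero hord.symm
    rw [pow_eq_pow_field x hx0, hord, ZMod.natCast_eq_natCast_iff]
  constructor
  · intro hu
    have hdeg := deg_factor hF r hr hrp Q hQ hm hd hne
    set b := Q.natDegree with hb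
    have hbpos : 0 < b := natDegree_pos_iff_degree_pos.mpr (degree_pos_of_irreducible hQ)
    let T : Finset E := (Finset.range b).image (fun j => x ^ (q ^ j))
    have hinj : Set.InjOn (fun j => x ^ (q ^ j)) (Finset.range b : Finset ℕ) := by
      intro j hj l hl hjl
      have h1 := (hpow _ _).mp hjl
      rw [Nat.cast_pow, Nat.cast_pow] at h1
      have hq0 : (q : ZMod r) ≠ 0 := natCast_ne_zero_zmod hF r hr hrp
      haveI : Fact r.Prime := ⟨hr⟩
      have h2 := (pow_eq_pow_field (q : ZMod r) hq0 _ _).mp h1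
      rw [← hdeg] at h2
      have hj' := Finset.mem_range.mp hj
      have hl' := Finset.mem_range.mp hl
      exact Nat.ModEq.eq_of_lt_of_lt h2 hj' hl'
    have hTcard : T.card = b := by
      rw [Finset.card_image_of_injOn hinj, Finset.card_range]
    have hmne : Q.map (algebraMap F E) ≠ 0 := (hm.map _).ne_zero
    have hTsub : T ⊆ (Q.aroots E).toFinset := by
      intro y hy
      obtain ⟨j, -, rfl⟩ := Finset.mem_image.mp hy
      rw [Multiset.mem_toFinset, mem_aroots]
      exact ⟨hQ.ne_zero, aeval_frob_pow hF Q x hQx j⟩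
    have hle : (Q.aroots E).toFinset.card ≤ T.card := by
      rw [hTcard]
      refine (Multiset.toFinset_card_le _).trans ?_
      refine (card_roots' _).trans ?_
      rw [natDegree_map]
    have hT := Finset.eq_of_subset_of_card_le hTsub hle
    have hmem : x ^ u ∈ T := by
      rw [hT, Multiset.mem_toFinset, mem_aroots]
      exact ⟨hQ.ne_zero, hu⟩
    obtain ⟨j, -, hj⟩ := Finset.mem_image.mp hmem
    refine ⟨j, ?_⟩
    have h1 := (hpow _ _).mp hj
    rw [← h1, Nat.cast_pow]
  · rintro ⟨j, hj⟩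
    have h1 : x ^ u = x ^ (q ^ j) := (hpow _ _).mpr (by rw [hj, Nat.cast_pow])
    rw [h1]
    exact aeval_frob_pow hF Q x hQx j

end roots

end Cfsg.Agent.Lib.GUr
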