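/-
Fixed points of the duality on the factors of `X^r - 1`.
-/
import Cfsg.Agent.Lib.GUr.Roots
import Cfsg.Agent.Lib.GUr.Arith
import Cfsg.Agent.Lib.HermCount.Field

set_option autoImplicit false
set_option linter.unusedSectionVars false

namespace Cfsg.Agent.Lib.GUr

open Polynomial Module Matrix
open Cfsg.Agent.Lib.MatConj.Semisimple Cfsg.Agent.Lib.MatConj.CycloFactors Cfsg.Agent.S2568
open Cfsg.Agent.Lib.HermCount.Field
open _root_.Classical

universe u

section

variable {F : Type u} [Field F] [Fintype F] {p q' : ℕ} [Fact p.Prime] [CharP F p]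

/-- General criterion: `σ` is extended to all field extensions by the `u`-th power. -/
theorem stp_fixed_iff (hF : Fintype.card F = q') (r : ℕ) (hr : r.Prime) (hrp : r ≠ p) (σ : F ≃+* F) (u : ℕ)
    (hτ : ∀ (E : Type u) [Field E] [Algebra F E], ∃ τ : E →+* E, (∀ z, τ z = z ^ u) ∧
      ∀ c : F, τ (algebraMap F E c) = algebraMap F E (σ c))
    (Q : F[X]) (hQS : Q ∈ SS F r) : stp σ Q = Q ↔ ∃ j : ℕ, - (u : ZMod r) = (q' : ZMod r) ^ j := by
  have hQ' := Finset.mem_erase.mp hQS
  obtain ⟨h1, h2, h3⟩ := (mem_Th r hr Q).mp hQ'.2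
  haveI : Fact (Irreducible Q) := ⟨h1⟩
  let E := AdjoinRoot Q
  let x : E := AdjoinRoot.root Q
  have hx : aeval x Q = 0 := AdjoinRoot.eval₂_root Q
  have hord := orderOf_root r hr h1 h2 h3 hQ'.1 x hx
  have hx0 : x ≠ 0 := by
    intro h0
    rw [h0, orderOf_zero] at hord
    exact hr.ne_zero hord.symm
  obtain ⟨τ, hτ1, hτ2⟩ := hτ E
  rw [stp_eq_iff σ τ hτ2 h1 h2 (coeff_zero_of_dvd_f0 r hr.ne_zero h3) x hx0 hx]
  have hxr : x ^ r = 1 := by
    rw [← hord]
    exact pow_orderOf_eq_one x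
  have hinv : x⁻¹ = x ^ (r - 1) := by
    have hrpos := hr.one_lt
    have : x ^ (r - 1) * x = 1 := by
      rw [← pow_succ, Nat.sub_add_cancel hrpos.le, hxr]
    exact (eq_inv_of_mul_eq_one_left this).symm
  rw [hτ1, hinv, ← pow_mul, aeval_pow_iff hF r hr hrp h1 h2 h3 hQ'.1 x hx]
  have hc : (((r - 1) * u : ℕ) : ZMod r) = - (u : ZMod r) := by
    have hrpos := hr.one_lt
    rw [Nat.cast_mul, Nat.cast_sub hrpos.le]
    simp
  rw [hc]

end

/-- The `q`-Frobenius as a ring automorphism of a field with `q²` elements. -/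
def frobE {F : Type u} [Field F] [Fintype F] {q : ℕ} (hF : Fintype.card F = q ^ 2) : F ≃+* F :=
  RingEquiv.ofRingHom (frobHom hF) (frobHom hF)
    (by ext x; exact frob_frob hF x) (by ext x; exact frob_frob hF x)

@[simp] theorem frobE_apply {F : Type u} [Field F] [Fintype F] {q : ℕ} (hF : Fintype.card F = q ^ 2) (x : F) :
    frobE hF x = x ^ q := rfl

theorem frobE_frobE {F : Type u} [Field F] [Fintype F] {q : ℕ} (hF : Fintype.card F = q ^ 2) (x : F) :
    frobE hF (frobE hF x) = x := frob_frob hF x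

section

variable {F : Type u} [Field F] [Fintype F] {q : ℕ}

/-- `z ↦ z^q` on extensions. -/
theorem exists_tau (hF : Fintype.card F = q ^ 2) (E : Type u) [Field E] [Algebra F E] :
    ∃ τ : E →+* E, (∀ z, τ z = z ^ q) ∧ ∀ c : F, τ (algebraMap F E c) = algebraMap F E (frobE hF c) := by
  obtain ⟨p, hp⟩ := CharP.exists F
  obtain ⟨n, hpp, hcard⟩ := FiniteField.card F p
  haveI : Fact p.Prime := ⟨hpp⟩
  have hq : q ∣ p ^ (n : ℕ) := by
    rw [← hcard, hF]
    exact dvd_pow_self q two_ne_zero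
  obtain ⟨j, -, rfl⟩ := (Nat.dvd_prime_pow hpp).mp hq
  haveI : CharP E p := charP_of_injective_algebraMap (algebraMap F E).injective p
  refine ⟨iterateFrobenius E p j, fun z => iterateFrobenius_def p j z, fun c => ?_⟩
  rw [iterateFrobenius_def, frobE_apply, map_pow]

end

end Cfsg.Agent.Lib.GUr
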