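/-
Counting tuples invariant under a fixed point free involution.
-/
import Cfsg.Agent.S2568

set_option autoImplicit false
set_option linter.unusedSectionVars false

namespace Cfsg.Agent.Lib.GUr

open Cfsg.Agent.S2568
open _root_.Classical

universe u

/-- Non-zero tuples with bounded sum. -/
theorem count_nonzero (S : Type u) [Fintype S] (N : ℕ) :
    Nat.card {a : S → ℕ // a ≠ 0 ∧ ∑ x, a x ≤ N} = Nat.choose (N + Fintype.card S) (Fintype.card S) - 1 := by
  have h1 := card_tuples S N
  rw [← h1]
  have : Finite {a : S → ℕ // ∑ Q, a Q ≤ N} := by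
    apply Nat.finite_of_card_ne_zero
    rw [h1]
    exact (Nat.choose_pos (Nat.le_add_left _ _)).ne'
  let z : {a : S → ℕ // ∑ Q, a Q ≤ N} := ⟨0, by simp⟩
  have e : {a : S → ℕ // a ≠ 0 ∧ ∑ x, a x ≤ N} ≃ {x : {a : S → ℕ // ∑ Q, a Q ≤ N} // x ≠ z} :=
    { toFun := fun a => ⟨⟨a.1, a.2.2⟩, fun h => a.2.1 (congrArg Subtype.val h)⟩
      invFun := fun x => ⟨x.1.1, fun h => x.2 (Subtype.ext h), x.1.2⟩
      left_inv := fun _ => rfl
      right_inv := fun _ => rfl }
  rw [Nat.card_congr e]
  haveI := Fintype.ofFinite {a : S → ℕ // ∑ Q, a Q ≤ N}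
  rw [Nat.card_eq_fintype_card, Nat.card_eq_fintype_card, Fintype.card_subtype_compl, Fintype.card_subtype_eq]

/-- The setoid of an involution. -/
def invSetoid {S : Type u} (τ : S → S) (hτ : ∀ x, τ (τ x) = x) : Setoid S where
  r x y := y = x ∨ y = τ x
  iseqv :=
    { refl := fun _ => Or.inl rfl
      symm := by
        rintro x y (rfl | rfl)
        · exact Or.inl rfl
        · exact Or.inr (hτ x).symm
      trans := by
        rintro x y z (rfl | rfl) (rfl | rfl)
        · exact Or.inl rfl
        · exact Or.inr rfl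
        · exact Or.inr rfl
        · exact Or.inl (hτ x) }

/-- The sum over `S` as twice a sum over the quotient. -/
theorem sum_pairs (S : Type u) [Fintype S] (τ : S → S) (hτ : ∀ x, τ (τ x) = x) (hfp : ∀ x, τ x ≠ x)
    [Fintype (Quotient (invSetoid τ hτ))] (c : Quotient (invSetoid τ hτ) → ℕ) :
    ∑ x, c (Quotient.mk _ x) = 2 * ∑ p, c p := by
  rw [Finset.mul_sum, ← Finset.sum_fiberwise (s := Finset.univ) (g := fun x => (Quotient.mk (invSetoid τ hτ) x)) (f := fun x => c (Quotient.mk _ x))]
  refine Finset.sum_congr rfl fun p _ => ?_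
  rw [Finset.sum_congr rfl (g := fun _ => c p) (fun x hx => by rw [(Finset.mem_filter.mp hx).2]), Finset.sum_const, smul_eq_mul]
  congr 1
  induction p using Quotient.inductionOn with
  | h x =>
    have h1 : (Finset.univ.filter fun y => (Quotient.mk (invSetoid τ hτ) y) = Quotient.mk _ x) = {x, τ x} := by
      ext y
      simp only [Finset.mem_filter, Finset.mem_univ, true_and, Finset.mem_insert, Finset.mem_singleton]
      constructor
      · intro h
        have h2 : (invSetoid τ hτ).r x y := Quotient.exact h.symm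
        exact h2
      · intro h
        have h2 : (invSetoid τ hτ).r x y := h
        exact (Quotient.sound h2).symm
    rw [h1, Finset.card_pair (hfp x).symm]

/-- Invariant tuples. -/
theorem count_inv (S : Type u) [Fintype S] (τ : S → S) (hτ : ∀ x, τ (τ x) = x) (hfp : ∀ x, τ x ≠ x) (N : ℕ) :
    Nat.card {a : S → ℕ // a ≠ 0 ∧ ∑ x, a x ≤ N ∧ ∀ x, a (τ x) = a x}
      = Nat.choose (N / 2 + Fintype.card S / 2) (Fintype.card S / 2) - 1 := by
  haveI hfq : Fintype (Quotient (invSetoid τ hτ)) := Fintype.ofFinite _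
  have hsum := @sum_pairs S _ τ hτ hfp hfq
  have hP : Fintype.card S / 2 = Fintype.card (Quotient (invSetoid τ hτ)) := by
    have h1 := hsum (fun _ => 1)
    simp only [Finset.sum_const, Finset.card_univ, smul_eq_mul, mul_one] at h1
    omega
  rw [hP, ← count_nonzero (Quotient (invSetoid τ hτ)) (N / 2)]
  have hinv : ∀ (a : S → ℕ), (∀ x, a (τ x) = a x) → ∀ x y, (invSetoid τ hτ).r x y → a x = a y := by
    rintro a ha x y (rfl | rfl)
    · rfl
    · exact (ha x).symm
  refine Nat.card_congr
    { toFun := fun a => ⟨Quotient.lift a.1 (hinv a.1 a.2.2.2), ?_, ?_⟩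
      invFun := fun c => ⟨fun x => c.1 (Quotient.mk _ x), ?_, ?_, ?_⟩
      left_inv := ?_
      right_inv := ?_ }
  · intro h
    apply a.2.1
    funext x
    exact congrFun h (Quotient.mk _ x)
  · have h1 := hsum (Quotient.lift a.1 (hinv a.1 a.2.2.2))
    have h2 : ∑ x, a.1 x = ∑ x, Quotient.lift a.1 (hinv a.1 a.2.2.2) (Quotient.mk _ x) := rfl
    have h3 := a.2.2.1
    rw [Nat.le_div_iff_mul_le (by norm_num)]
    omega
  · intro h
    apply c.2.1
    funext p
    induction p using Quotient.inductionOn with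
    | h x => exact congrFun h x
  · have h1 := hsum c.1
    have h2 := c.2.2
    rw [Nat.le_div_iff_mul_le (by norm_num)] at h2
    show ∑ x, c.1 (Quotient.mk _ x) ≤ N
    omega
  · intro x
    exact congrArg c.1 (Quotient.sound (Or.inr (hτ x).symm ) : Quotient.mk (invSetoid τ hτ) (τ x) = Quotient.mk _ x) 
  · intro a
    rfl
  · intro c
    apply Subtype.ext
    funext p
    induction p using Quotient.inductionOn with
    | h x => rfl

end Cfsg.Agent.Lib.GUr
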